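import Mathlib
import Cfsg.Agent.CharBasics.Burnside

/-!
# Simple groups of order `p ^ 2 * q * r`
-/

set_option autoImplicit false
set_option linter.style.haveILetI false

namespace CfsgLib.OrderP2QR

variable {G : Type*} [Group G] [Finite G]

/-- A nonabelian simple group has no Sylow subgroup with `N ≤ C`. -/
theorem not_normalizer_le_centralizer [IsSimpleGroup G] {s : ℕ} [Fact s.Prime] (P : Sylow s G)
    (hne : (P : Subgroup G) ≠ ⊥) (hnt : (P : Subgroup G) ≠ ⊤)
    (hP : Subgroup.normalizer ((P : Subgroup G) : Set G) ≤ Subgroup.centralizer ((P : Subgroup G) : Set G)) : False := by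
  have h := MonoidHom.ker_transferSylow_isComplement' P hP
  rcases (MonoidHom.normal_ker (MonoidHom.transferSylow P hP)).eq_bot_or_eq_top with hk | hk
  · rw [hk] at h
    exact hnt (Subgroup.isComplement'_bot_left.1 h)
  · rw [hk] at h
    exact hne (Subgroup.isComplement'_top_left.1 h)

theorem card_eq_sixty [IsSimpleGroup G] (p q r : ℕ) (hp : p.Prime) (hq : q.Prime) (hr : r.Prime)
    (hG : Nat.card G = p ^ 2 * q * r) : Nat.card G = 60 := by
  classical
  have hnotp : ¬ (Nat.card G).Prime := by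
    intro h
    rw [hG, mul_assoc] at h
    exact Nat.not_prime_mul (by nlinarith [hp.two_le]) (by nlinarith [hq.two_le, hr.two_le]) h
  have hnc : ¬ ∀ a b : G, a * b = b * a := fun hc => by
    letI : CommGroup G := { (inferInstance : Group G) with mul_comm := hc }
    exact hnotp (IsSimpleGroup.prime_card (α := G))
  have htwo : ∀ a b : ℕ, (∀ s : ℕ, s.Prime → s ∣ Nat.card G → s = a ∨ s = b) → False := fun a b h =>
    hnc (IsSimpleGroup.comm_iff_isSolvable.2 (CfsgLib.CharBasics.isSolvable_two_primes a b h))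
  have hdvd : ∀ s : ℕ, s.Prime → s ∣ Nat.card G → s = p ∨ s = q ∨ s = r := by
    intro s hs hd
    rw [hG] at hd
    rcases (hs.dvd_mul).1 hd with h | h
    · rcases (hs.dvd_mul).1 h with h | h
      · exact Or.inl ((Nat.prime_dvd_prime_iff_eq hs hp).1 (hs.dvd_of_dvd_pow h))
      · exact Or.inr (Or.inl ((Nat.prime_dvd_prime_iff_eq hs hq).1 h))
    · exact Or.inr (Or.inr ((Nat.prime_dvd_prime_iff_eq hs hr).1 h))
  have hpq : p ≠ q := fun e => htwo p r fun s hs hd => by rcases hdvd s hs hd with h | h | h <;> omega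
  have hpr : p ≠ r := fun e => htwo p q fun s hs hd => by rcases hdvd s hs hd with h | h | h <;> omega
  have hqr : q ≠ r := fun e => htwo p q fun s hs hd => by rcases hdvd s hs hd with h | h | h <;> omega
  have hfp : (Nat.card G).factorization p = 2 := by
    rw [hG, Nat.factorization_mul (mul_ne_zero (pow_ne_zero _ hp.ne_zero) hq.ne_zero) hr.ne_zero,
      Nat.factorization_mul (pow_ne_zero _ hp.ne_zero) hq.ne_zero]
    simp [hp.factorization, hq.factorization, hr.factorization, Ne.symm hpq, Ne.symm hpr]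
  have hfqr : ∀ s : ℕ, s.Prime → s ∣ Nat.card G → s ≠ p → (Nat.card G).factorization s = 1 := by
    intro s hs hd hsp
    rw [hG, Nat.factorization_mul (mul_ne_zero (pow_ne_zero _ hp.ne_zero) hq.ne_zero) hr.ne_zero,
      Nat.factorization_mul (pow_ne_zero _ hp.ne_zero) hq.ne_zero]
    rcases hdvd s hs hd with h | h | h
    · exact absurd h hsp
    · subst h; simp [hp.factorization, hs.factorization, hr.factorization, hpq, Ne.symm hqr]
    · subst h; simp [hp.factorization, hq.factorization, hs.factorization, hpr, hqr]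
  have hdp : p ∣ Nat.card G := ⟨p * q * r, by rw [hG]; ring⟩
  have hdq : q ∣ Nat.card G := ⟨p ^ 2 * r, by rw [hG]; ring⟩
  have hdr : r ∣ Nat.card G := ⟨p ^ 2 * q, by rw [hG]; ring⟩
  haveI hpF := Fact.mk hp
  -- the Sylow subgroups are nontrivial and proper
  have hprop : ∀ {s : ℕ} [Fact s.Prime] (S : Sylow s G), s ∣ Nat.card G →
      (S : Subgroup G) ≠ ⊥ ∧ (S : Subgroup G) ≠ ⊤ := by
    intro s hs S hd
    refine ⟨S.ne_bot_of_dvd_card hd, fun h => ?_⟩
    have hone : ∀ t : ℕ, t.Prime → t ∣ Nat.card G → t = s := fun t ht htd => by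
      obtain ⟨a, ha⟩ := IsPGroup.iff_card.1 S.isPGroup'
      rw [h, Subgroup.card_top] at ha
      exact (Nat.prime_dvd_prime_iff_eq ht hs.out).1 (ht.dvd_of_dvd_pow (ha ▸ htd))
    exact hpq ((hone p hp hdp).trans (hone q hq hdq).symm)
  -- `p` is the smallest prime
  have hmin : ∀ s : ℕ, s.Prime → s ∣ Nat.card G → s ≠ p → p < s := by
    intro s hs hd hsp
    by_contra hle
    have hne1 : Nat.card G ≠ 1 := fun h => by rw [h] at hd; exact hs.not_dvd_one hd
    set m := (Nat.card G).minFac with hm
    have hmp : m.Prime := Nat.minFac_prime hne1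
    have hmle : m ≤ s := Nat.minFac_le_of_dvd hs.two_le hd
    haveI := Fact.mk hmp
    obtain ⟨P⟩ : Nonempty (Sylow m G) := inferInstance
    have hcyc : IsCyclic P := isCyclic_of_prime_card (p := m)
      (by rw [P.card_eq_multiplicity, hfqr m hmp (Nat.minFac_dvd _) (by omega), pow_one])
    exact not_normalizer_le_centralizer P (hprop P (Nat.minFac_dvd _)).1 (hprop P (Nat.minFac_dvd _)).2
      (IsCyclic.normalizer_le_centralizer hm.symm hcyc)
  obtain ⟨P⟩ : Nonempty (Sylow p G) := inferInstance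
  set N := Subgroup.normalizer ((P : Subgroup G) : Set G) with hN
  set C := Subgroup.centralizer ((P : Subgroup G) : Set G) with hC
  have hcardP : Nat.card (P : Subgroup G) = p ^ 2 := by rw [P.card_eq_multiplicity, hfp]
  haveI : IsMulCommutative (P : Subgroup G) := ⟨⟨(IsPGroup.commutative_of_card_eq_prime_sq hcardP)⟩⟩
  have hPC : (P : Subgroup G) ≤ C := Subgroup.le_centralizer _
  have hCN : C ≤ N := Subgroup.centralizer_le_normalizer _
  have hidx : C.relIndex N ≠ 1 := fun h =>
    not_normalizer_le_centralizer P (hprop P hdp).1 (hprop P hdp).2 (Subgroup.relIndex_eq_one.1 h)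
  obtain ⟨s, hs, hsd⟩ := Nat.exists_prime_and_dvd hidx
  have hsC : ¬ p ∣ C.relIndex N := fun h => P.not_dvd_index <| h.trans <|
    ((Subgroup.relIndex_dvd_of_le_left N hPC).trans (Subgroup.relIndex_dvd_index_of_le (hPC.trans hCN)))
  have hsp : s ≠ p := fun e => hsC (e ▸ hsd)
  have hsN : s ∣ Nat.card N := hsd.trans (Subgroup.relIndex_dvd_card _ _)
  have hsG : s ∣ Nat.card G := hsN.trans (Subgroup.card_subgroup_dvd_card _)
  haveI := Fact.mk hs
  obtain ⟨⟨v, hvN⟩, hv⟩ := exists_prime_orderOf_dvd_card' s hsN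
  have hvs : orderOf v = s := by simpa [Subgroup.orderOf_mk] using hv
  have hvC : v ∉ C := by
    intro h
    have h1 : s ∣ Nat.card C := hvs ▸ Subgroup.orderOf_dvd_natCard C h
    have h2 : s * s ∣ Nat.card N := by
      have h3 := Subgroup.relIndex_mul_relIndex ⊥ C N bot_le hCN
      rw [Subgroup.relIndex_bot_left, Subgroup.relIndex_bot_left] at h3
      exact h3 ▸ mul_dvd_mul h1 hsd
    have h4 : s ^ 2 ∣ Nat.card G := (pow_two s ▸ h2).trans (Subgroup.card_subgroup_dvd_card _)
    have h5 := (hs.pow_dvd_iff_le_factorization Nat.card_pos.ne').1 h4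
    rw [hfqr s hs hsG hsp] at h5
    omega
  -- the fixed points of `v` on `P`
  set V := Subgroup.zpowers v with hV
  have hVN : ∀ w : V, (w : G) ∈ N := fun w => (Subgroup.zpowers_le.2 hvN) w.2
  letI : MulAction V (P : Subgroup G) :=
    { smul := fun w x => ⟨w * x * (w : G)⁻¹, (Subgroup.mem_normalizer_iff.1 (hVN w) x).1 x.2⟩
      one_smul := fun x => Subtype.ext (by show ((1 : V) : G) * x * ((1 : V) : G)⁻¹ = x; simp)
      mul_smul := fun a b x => Subtype.ext (by
        show ((a * b : V) : G) * x * ((a * b : V) : G)⁻¹ = (a : G) * ((b : G) * x * (b : G)⁻¹) * (a : G)⁻¹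
        rw [Subgroup.coe_mul]; group) }
  have hVp : IsPGroup s V := IsPGroup.of_card (n := 1) (by rw [Nat.card_zpowers, hvs, pow_one])
  have hmod := hVp.card_modEq_card_fixedPoints (P : Subgroup G)
  let Fx : Subgroup G := (P : Subgroup G) ⊓ Subgroup.centralizer ({v} : Set G)
  have hFx : Nat.card (MulAction.fixedPoints V (P : Subgroup G)) = Nat.card Fx := by
    refine Nat.card_congr
      { toFun := fun x => ⟨((x : (P : Subgroup G)) : G), (x : (P : Subgroup G)).2,
          Subgroup.mem_centralizer_singleton_iff.2 ?_⟩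
        invFun := fun x => ⟨⟨x.1, x.2.1⟩, fun w => ?_⟩
        left_inv := fun x => rfl
        right_inv := fun x => rfl }
    · have h : v * ((x : (P : Subgroup G)) : G) * v⁻¹ = ((x : (P : Subgroup G)) : G) :=
        congrArg Subtype.val (x.2 ⟨v, Subgroup.mem_zpowers v⟩)
      exact (mul_inv_eq_iff_eq_mul.1 h).symm
    · obtain ⟨k, hk⟩ := w.2
      have h : Commute v x.1 := (Subgroup.mem_centralizer_singleton_iff.1 x.2.2).symm
      refine Subtype.ext (show (w : G) * x.1 * (w : G)⁻¹ = x.1 from ?_)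
      rw [← hk, (h.zpow_left k).eq, mul_inv_cancel_right]
  rw [hFx, hcardP] at hmod
  obtain ⟨i, hi, hFc⟩ := (Nat.dvd_prime_pow hp).1 (hcardP ▸ Subgroup.card_dvd_of_le (inf_le_left : Fx ≤ _))
  have hi2 : i ≠ 2 := by
    rintro rfl
    apply hvC
    have : Fx = (P : Subgroup G) := Subgroup.eq_of_le_of_card_ge inf_le_left (by rw [hFc, hcardP])
    exact Subgroup.mem_centralizer_iff.2 fun x hx =>
      Subgroup.mem_centralizer_singleton_iff.1 ((this.ge hx).2)
  rw [hFc] at hmod
  have hlt := hmin s hs hsG hsp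
  have hs3 : p = 2 ∧ s = 3 := by
    have hle : p ^ i ≤ p ^ 2 := Nat.pow_le_pow_right hp.pos hi
    have hd : s ∣ p ^ 2 - p ^ i := (Nat.modEq_iff_dvd' hle).1 hmod.symm
    have hkey : s ∣ p - 1 ∨ s ∣ p + 1 := by
      interval_cases i
      · have e : p ^ 2 - p ^ 0 = (p + 1) * (p - 1) := by
          rw [pow_zero, ← Nat.sq_sub_sq, one_pow]
        rw [e] at hd
        rcases hs.dvd_mul.1 hd with h | h
        · exact Or.inr h
        · exact Or.inl h
      · have e : p ^ 2 - p ^ 1 = p * (p - 1) := by rw [pow_one, Nat.mul_sub, mul_one, pow_two]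
        rw [e] at hd
        rcases hs.dvd_mul.1 hd with h | h
        · exact absurd ((Nat.prime_dvd_prime_iff_eq hs hp).1 h) hsp
        · exact Or.inl h
      · omega
    rcases hkey with h | h
    · have := Nat.le_of_dvd (by have := hp.two_le; omega) h
      omega
    · have h1 := Nat.le_of_dvd (by omega) h
      have hse : s = p + 1 := by omega
      rcases hp.eq_two_or_odd' with h2 | h2
      · exact ⟨h2, by omega⟩
      · rcases hs.eq_two_or_odd' with h3 | h3
        · have := hp.two_le
          omega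
        · rw [hse] at h3
          exact absurd h2.add_one (Nat.not_even_iff_odd.2 h3)
  obtain ⟨rfl, rfl⟩ := hs3
  obtain ⟨t, ht, htd, ht2, ht3, hcard⟩ : ∃ t, t.Prime ∧ t ∣ Nat.card G ∧ t ≠ 2 ∧ t ≠ 3 ∧ Nat.card G = 12 * t := by
    rcases hdvd 3 hs hsG with h | h | h
    · omega
    · exact ⟨r, hr, hdr, Ne.symm hpr, fun e => hqr (h.symm.trans e.symm), by rw [hG, ← h]; ring⟩
    · exact ⟨q, hq, hdq, Ne.symm hpq, fun e => hqr (e.trans h), by rw [hG, ← h]; ring⟩
  haveI := Fact.mk ht
  obtain ⟨T⟩ : Nonempty (Sylow t G) := inferInstance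
  have hTc : Nat.card (T : Subgroup G) = t := by rw [T.card_eq_multiplicity, hfqr t ht htd ht2, pow_one]
  have hn := card_sylow_modEq_one t G
  have hsc : Nat.card (Sylow t G) = (Subgroup.normalizer ((T : Subgroup G) : Set G)).index :=
    T.card_eq_index_normalizer
  have hne : Nat.card (Sylow t G) ≠ 1 := by
    intro h1
    rw [hsc, Subgroup.index_eq_one] at h1
    replace h1 := Subgroup.normalizer_eq_top_iff.1 h1
    exact h1.eq_bot_or_eq_top.elim (hprop T htd).1 (hprop T htd).2
  have hd12 : Nat.card (Sylow t G) ∣ 12 := by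
    have h := T.card_dvd_index
    have h2 := (T : Subgroup G).index_mul_card
    rw [hTc, hcard] at h2
    rwa [Nat.eq_of_mul_eq_mul_right ht.pos h2] at h
  have h12 : Nat.card (Sylow t G) ≠ 12 := by
    intro h
    refine not_normalizer_le_centralizer T (hprop T htd).1 (hprop T htd).2 ?_
    have h2 := (Subgroup.normalizer ((T : Subgroup G) : Set G)).index_mul_card
    rw [← hsc, h, hcard] at h2
    have h3 : (T : Subgroup G) = Subgroup.normalizer ((T : Subgroup G) : Set G) :=
      Subgroup.eq_of_le_of_card_ge Subgroup.le_normalizer (by rw [hTc]; omega)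
    haveI : IsCyclic (T : Subgroup G) := isCyclic_of_prime_card (p := t) hTc
    haveI : IsMulCommutative (T : Subgroup G) := ⟨⟨fun a b => IsCyclic.commGroup.mul_comm a b⟩⟩
    exact h3.ge.trans (Subgroup.le_centralizer _)
  have hmem : Nat.card (Sylow t G) ∈ ({1, 2, 3, 4, 6, 12} : Finset ℕ) := by
    have h : Nat.card (Sylow t G) ∈ Nat.divisors 12 := Nat.mem_divisors.2 ⟨hd12, by norm_num⟩
    simpa [show Nat.divisors 12 = {1, 2, 3, 4, 6, 12} by decide] using h
  have hmod' : t ∣ Nat.card (Sylow t G) - 1 :=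
    (Nat.modEq_iff_dvd' (Nat.card_pos)).1 hn.symm
  simp only [Finset.mem_insert, Finset.mem_singleton] at hmem
  have ht5 : t = 5 := by
    have h5 : 5 ≤ t := by
      have := ht.two_le
      rcases eq_or_ne t 4 with rfl | h4
      · norm_num at ht
      · omega
    rcases hmem with h | h | h | h | h | h <;> rw [h] at hmod' <;> norm_num at hmod'
    all_goals first
      | omega
      | (exfalso; exact hne h)
      | (exfalso; exact h12 h)
      | (have := Nat.le_of_dvd (by norm_num) hmod'; omega)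
  rw [hcard, ht5]

end CfsgLib.OrderP2QR
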